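import Cfsg.Agent.H177.F4.BigTools
import Cfsg.Agent.H546.F4.Eig
import Cfsg.Agent.H952.F4.Chg
import Cfsg.Agent.H952.F4.EigFrob
import Cfsg.Agent.H952.F4.Gen
import Cfsg.Agent.H952.F4.JMod
import Cfsg.Agent.H952.F4.Tab
import Cfsg.Agent.H952.F4.Fix
import Cfsg.Agent.H927.F4Two
import Cfsg.Agent.H952.F4.NoSevenFive

/-!
# S5926, part Z5: no maximal subgroup of `F₄(q)` with generalized Fitting subgroup `A_n`, `7 ≤ n ≤ 10`,
in characteristic 2 and 5
-/

set_option autoImplicit false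
set_option maxRecDepth 10000

namespace Cfsg.Agent.H177.F4

open Cfsg Cfsg.Lie Module Equiv
open Cfsg.Agent.ChevalleyStructure Cfsg.Agent.ChevalleyStructure.Elts
open Cfsg.Agent.ChevalleyStructure.E6Min.Tables Cfsg.Agent.ChevalleyStructure.E6Min.Basic
open Cfsg.Agent.GpExc.Field (emb)
open Cfsg.Agent.H952.F4

universe u

/-- characteristic 2: the contradiction on a module where the elements of order 7 have 8-dimensional fixed space -/
theorem two_core {F V : Type u} [Field F] [Finite F] [CharP F 2] [AddCommGroup V] [Module F V]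
    {H : Subgroup ↥(chevF4.group F)} {n : ℕ}
    {φ : ↥(alternatingGroup (Fin n)) →* ↥(chevF4.group F)} (hM : MaxAlt H n φ) (hn : 7 ≤ n) (hn' : n ≤ 10)
    (ρ : Representation F ↥(chevF4.group F) V) (h26 : Mod26 ρ)
    (h5 : ∀ x : ↥(chevF4.group F), x ≠ 1 → x ^ 5 = 1 → (∃ g : ↥(chevF4.group F), g * x * g⁻¹ = x ^ 2) →
      ev (ρ x) 1 = 6)
    (h7 : ∀ x : ↥(alternatingGroup (Fin n)), (x : Perm (Fin n)).cycleType = {7} → ev (ρ (φ x)) 1 = 8) : False := by
  have hf := h26.fin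
  have hS : ∀ {x y : ↥(alternatingGroup (Fin n))}, Subgroup.closure {x, y} = ⊤ →
      ev (ρ (φ x)) 1 + ev (ρ (φ y)) 1 + ev (ρ (φ (x * y))) 1 ≤ 26 := by
    intro x y hxy
    obtain ⟨B, -, hB, hB'⟩ := h26.form
    exact scott_le hM hn hn' ρ hf h26.dim ⟨B, hB, hB'⟩ h26.inv hxy
  have h2 : ∀ x : ↥(alternatingGroup (Fin n)), x ^ 2 = 1 → 13 ≤ ev (ρ (φ x)) 1 := by
    intro x hx
    have h1 := Eig.le_mul_ev (K := F) 2 (T := ρ (φ x)) (by rw [← map_pow, ← map_pow, hx, map_one, map_one])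
    rw [h26.dim] at h1
    omega
  have h5' : ∀ x : ↥(alternatingGroup (Fin n)), x ≠ 1 → x ^ 5 = 1 → (∃ g, g * x * g⁻¹ = x ^ 2) →
      ev (ρ (φ x)) 1 = 6 := by
    rintro x hx1 hx5 ⟨g, hg⟩
    refine h5 (φ x) (fun h => hx1 (hM.inj (h.trans (map_one φ).symm))) (by rw [← map_pow, hx5, map_one])
      ⟨φ g, by rw [← map_inv, ← map_mul, ← map_mul, hg, map_pow]⟩
  have hc : n = 7 ∨ n = 8 ∨ n = 9 ∨ n = 10 := by omega
  rcases hc with rfl | rfl | rfl | rfl
  · obtain ⟨x, y, hxy, hx, hy, hz⟩ := Gen.gen7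
    have a1 := h2 x (pow_of_type hx (by decide))
    have a2 := h5' y (ne_one_of_type hy (by decide)) (pow_of_type hy (by decide)) (rat_five le_rfl hy)
    have a3 := h7 _ hz
    have a4 := hS hxy
    omega
  · obtain ⟨x, y, hxy, hx, hy, hz⟩ := Gen.gen8
    have a1 := h2 x (pow_of_type hx (by decide))
    have a2 := h7 _ hy
    have a3 := h7 _ hz
    have a4 := hS hxy
    omega
  · obtain ⟨x, y, hxy, hx, hy, hz⟩ := Gen.gen9
    have a1 := h2 x (pow_of_type hx (by decide))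
    have a2 := h7 _ hy
    have a3 := h7 _ hz
    have a4 := hS hxy
    omega
  · obtain ⟨x, y, hxy, hx, hy, hz⟩ := Gen.gen10
    have a1 := h2 x (pow_of_type hx (by decide))
    have a2 := h7 _ hy
    have a3 := h5' (x * y) (ne_one_of_type hz (by decide)) (pow_of_type hz (by decide)) (rat_55 le_rfl hz)
    have a4 := hS hxy
    omega

section five

variable {F : Type u} [Field F] [Finite F] [CharP F 5] {ρ : ↥(chevF4.group F) →* GL I27 F}

theorem two_A7 (hρ : IsJ ρ) (φ : ↥(alternatingGroup (Fin 7)) →* ↥(chevF4.group F)) (hφ : Function.Injective φ) :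
    ev (JK ρ (φ qa)) 1 = 15 := by
  have h2 : (2 : F) ≠ 0 := by
    intro h
    have := (CharP.cast_eq_zero_iff F 5 2).1 (by exact_mod_cast h)
    omega
  have h3 : (3 : F) ≠ 0 := by
    intro h
    have := (CharP.cast_eq_zero_iff F 5 3).1 (by exact_mod_cast h)
    omega
  have hne : ∀ x : ↥(alternatingGroup (Fin 7)), x ≠ 1 → φ x ≠ 1 := fun x hx h =>
    hx (hφ (h.trans (map_one φ).symm))
  obtain ⟨⟨r1, r2, r3, r4, r5⟩, ⟨s1, s2, s3, s4⟩, ⟨t1, t2, t3, t4⟩, ⟨u1, u2, u3, u4, u5, u6⟩, ⟨v1, v2, v3, v4⟩, w1⟩ :=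
    rel7
  have : Fact (Nat.Prime 5) := ⟨by norm_num⟩
  have tab := Tor.tab_finite 5 hρ
  rcases tab.two (by decide) (φ qa) (hne _ w1) (by rw [← map_mul, r1, map_one]) with ⟨h, -⟩ | ⟨h, -⟩
  · exact h
  exfalso
  have E : ∀ g x y : ↥(alternatingGroup (Fin 7)), g * x * g⁻¹ = y → ev (JK ρ (φ y)) 1 = ev (JK ρ (φ x)) 1 := by
    rintro g x y rfl
    exact ev_map φ (JK ρ) g x 1
  have key : ∀ a b t : ↥(alternatingGroup (Fin 7)), a * a = 1 → b * b = 1 → a * b = b * a → t ^ 3 = 1 → t ≠ 1 →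
      t * a * t⁻¹ = b → t * b * t⁻¹ = a * b → ev (JK ρ (φ a)) 1 = 11 → ev (JK ρ (φ t)) 1 = 9 := by
    intro a b t ha hb hab ht ht1 hta htb h11
    have e1 := E _ _ _ hta
    have e2 := E _ _ _ htb
    have f1 := Eig.four h2 (JK ρ) (a := φ a) (b := φ b) (by rw [← map_mul, ha, map_one])
      (by rw [← map_mul, hb, map_one]) (by rw [← map_mul, hab, map_mul])
    have f2 := Eig.a4 h2 (JK ρ) (a := φ a) (b := φ b) (t := φ t) (by rw [← map_mul, ha, map_one])
      (by rw [← map_mul, hb, map_one]) (by rw [← map_mul, hab, map_mul]) (by rw [← map_pow, ht, map_one])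
      (by rw [← map_inv, ← map_mul, ← map_mul, hta]) (by rw [← map_inv, ← map_mul, ← map_mul, htb, map_mul])
    have f3 : finrank F ↥(es (JK ρ (φ a)) 1 ⊓ es (JK ρ (φ b)) 1 ⊓ es (JK ρ (φ t)) 1) ≤
        finrank F ↥(es (JK ρ (φ a)) 1 ⊓ es (JK ρ (φ b)) 1) := Submodule.finrank_mono inf_le_left
    rw [← map_mul, finrank_J] at f1
    rw [finrank_J] at f2
    rcases tab.three (by decide) (φ t) (hne _ ht1) (by rw [← map_pow, ht, map_one]) with ⟨h4, -⟩ | ⟨h4, -⟩ | ⟨h4, -⟩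
    · omega
    · exact h4
    · exact h4
  have k1 := key qa qb qt r1 r2 r4 s1 s2 s3 s4 h
  have k2 := key qa qb' (qz * qw) r1 r3 r5 t1 t2 t3 t4 h
  have k3 := E _ _ _ v1
  have k4 := E _ _ _ v2
  have k5 := E _ _ _ v3
  have k6 := E _ _ _ v4
  obtain ⟨ρ', hρ'⟩ := JMod.exists_isJ (AlgebraicClosure F)
  have hK : ∀ g : ↥(alternatingGroup (Fin 7)),
      ev (JK ρ' (emb hF4 (algebraMap F (AlgebraicClosure F)) (φ g))) 1 = ev (JK ρ (φ g)) 1 := by
    intro g
    have := Chg.ev_J (algebraMap F (AlgebraicClosure F)) hρ hρ' (φ g) 1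
    rwa [map_one] at this
  have h3K : (3 : AlgebraicClosure F) ≠ 0 := by
    intro h0
    apply h3
    apply (algebraMap F (AlgebraicClosure F)).injective
    rw [map_zero, ← h0]
    exact map_ofNat _ 3
  let ψ : ↥(alternatingGroup (Fin 7)) →* ↥(chevF4.group (AlgebraicClosure F)) :=
    (emb hF4 (algebraMap F (AlgebraicClosure F))).comp φ
  have hψ : ∀ g, ev (JK ρ' (ψ g)) 1 = ev (JK ρ (φ g)) 1 := hK
  have n1 := Eig.nine h3K (JK ρ') (z := ψ qz) (w := ψ qw) (s := ψ qs)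
    (by rw [← map_pow, u1, map_one]) (by rw [← map_pow, u2, map_one]) (by rw [← map_mul, u3, map_mul])
    (by rw [← map_mul, u4, map_one]) (by rw [← map_inv, ← map_mul, ← map_mul, u5, map_inv])
    (by rw [← map_inv, ← map_mul, ← map_mul, u6, map_inv])
  rw [← map_inv, ← map_mul, ← map_mul, hψ, hψ, hψ, hψ, hψ, finrank_J] at n1
  omega

theorem two_A8 (hρ : IsJ ρ) (φ : ↥(alternatingGroup (Fin 8)) →* ↥(chevF4.group F)) (hφ : Function.Injective φ) :
    ev (JK ρ (φ ta)) 1 = 15 := by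
  have h2 : (2 : F) ≠ 0 := by
    intro h
    have := (CharP.cast_eq_zero_iff F 5 2).1 (by exact_mod_cast h)
    omega
  have hne : ∀ x : ↥(alternatingGroup (Fin 8)), x ≠ 1 → φ x ≠ 1 := fun x hx h =>
    hx (hφ (h.trans (map_one φ).symm))
  obtain ⟨⟨r1, r2, r3, r4, r5, r6⟩, ⟨s1, s2, s3, s4, s5, s6⟩, w1⟩ := rel8
  have : Fact (Nat.Prime 5) := ⟨by norm_num⟩
  have tab := Tor.tab_finite 5 hρ
  rcases tab.two (by decide) (φ ta) (hne _ w1) (by rw [← map_mul, r1, map_one]) with ⟨h, -⟩ | ⟨h, -⟩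
  · exact h
  exfalso
  have E : ∀ g x y : ↥(alternatingGroup (Fin 8)), g * x * g⁻¹ = y → ev (JK ρ (φ y)) 1 = ev (JK ρ (φ x)) 1 := by
    rintro g x y rfl
    exact ev_map φ (JK ρ) g x 1
  have k1 := E _ _ _ s1
  have k2 := E _ _ _ s2
  have k3 := E _ _ _ s3
  have k4 := E _ _ _ s4
  have k5 := E _ _ _ s5
  have k6 := E _ _ _ s6
  have f1 := Eig.eight h2 (JK ρ) (a := φ ta) (b := φ tb) (c := φ tc) (by rw [← map_mul, r1, map_one])
    (by rw [← map_mul, r2, map_one]) (by rw [← map_mul, r3, map_one]) (by rw [← map_mul, r4, map_mul])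
    (by rw [← map_mul, r5, map_mul]) (by rw [← map_mul, r6, map_mul])
  rw [← map_mul φ ta tb, ← map_mul φ ta tc, ← map_mul φ tb tc, ← map_mul φ (ta * tb) tc, finrank_J] at f1
  omega

end five

end Cfsg.Agent.H177.F4

namespace Cfsg.Agent.H952.F4.Cases

open Cfsg Cfsg.Lie Module Equiv Cfsg.Agent.H952.F4 Cfsg.Agent.H177.F4

universe u

variable {F : Type u} [Field F] [Finite F] {H : Subgroup ↥(chevF4.group F)} {n : ℕ}

theorem big_two [CharP F 2] (hn : 7 ≤ n) (hn' : n ≤ 10) {φ : ↥(alternatingGroup (Fin n)) →* ↥(chevF4.group F)}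
    (hM : MaxAlt H n φ) : False := by
  obtain ⟨M, N, _, _, _, _, ρ, σ, hP⟩ := Two.exists_pkg F
  obtain ⟨x₀, hx₀⟩ := exists_seven hn
  obtain ⟨g, hg⟩ := rat_seven hn hx₀
  have h1 := hP.seven_rat (φ x₀)
    (fun h => ne_one_of_type hx₀ (by decide) (hM.inj (h.trans (map_one φ).symm)))
    (by rw [← map_pow, pow_of_type hx₀ (by decide), map_one])
    ⟨φ g, by rw [← map_inv, ← map_mul, ← map_mul, hg, map_pow]⟩
  rcases h1 with h1 | h1
  · exact two_core hM hn hn' ρ hP.m (fun x a b c => (hP.five_rat x a b c).1)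
      fun x hx => (ev_seven hn φ ρ hx hx₀).trans h1
  · exact two_core hM hn hn' σ hP.n (fun x a b c => (hP.five_rat x a b c).2)
      fun x hx => (ev_seven hn φ σ hx hx₀).trans h1

theorem big_five [CharP F 5] (hn : 7 ≤ n) (hn' : n ≤ 10) {φ : ↥(alternatingGroup (Fin n)) →* ↥(chevF4.group F)}
    (hM : MaxAlt H n φ) : False := by
  obtain ⟨ρ, hρ⟩ := JMod.exists_isJ F
  have : Fact (Nat.Prime 5) := ⟨by norm_num⟩
  obtain ⟨V, _, _, σ, hV, -⟩ := Fix.exists_V26 5 (by decide) (by decide) hρ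
  have hf := hV.fin
  have hS : ∀ {x y : ↥(alternatingGroup (Fin n))}, Subgroup.closure {x, y} = ⊤ →
      ev (σ (φ x)) 1 + ev (σ (φ y)) 1 + ev (σ (φ (x * y))) 1 ≤ 26 := by
    intro x y hxy
    exact scott_le hM hn hn' σ hf hV.dim hV.form hV.inv hxy
  have hco : ∀ (x : ↥(alternatingGroup (Fin n))) (k : ℕ), x ^ k = 1 → Nat.Coprime k 5 →
      ev (JK ρ (φ x)) 1 = ev (σ (φ x)) 1 + 1 := by
    intro x k hx hk
    refine hV.ev_eq (φ x) (Nat.Coprime.coprime_dvd_left ?_ hk)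
    rw [orderOf_dvd_iff_pow_eq_one, ← map_pow, hx, map_one]
  have h22 : ∀ x : ↥(alternatingGroup (Fin n)), (x : Perm (Fin n)).cycleType = {2, 2} → ev (σ (φ x)) 1 = 14 := by
    intro x hx
    obtain ⟨ι, hι, rfl⟩ := exists_emb hn qa x (hx.trans qa_type.symm)
    have h1 := two_A7 hρ (φ.comp ι) (hM.inj.comp hι)
    have h2 := hco (ι qa) 2 (pow_of_type hx (by decide)) (by decide)
    have h3 : ev (JK ρ (φ (ι qa))) 1 = 15 := h1
    omega
  have h24 : 8 ≤ n → ∀ x : ↥(alternatingGroup (Fin n)), (x : Perm (Fin n)).cycleType = {2, 2, 2, 2} →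
      ev (σ (φ x)) 1 = 14 := by
    intro hn8 x hx
    obtain ⟨ι, hι, rfl⟩ := exists_emb hn8 ta x (hx.trans ta_type.symm)
    have h1 := two_A8 hρ (φ.comp ι) (hM.inj.comp hι)
    have h2 := hco (ι ta) 2 (pow_of_type hx (by decide)) (by decide)
    have h3 : ev (JK ρ (φ (ι ta))) 1 = 15 := h1
    omega
  have h7 : ∀ x : ↥(alternatingGroup (Fin n)), (x : Perm (Fin n)).cycleType = {7} → ev (σ (φ x)) 1 = 8 := by
    intro x hx
    have h0 : g7.cycleType = {7} := by decide +kernel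
    obtain ⟨ι, hι, rfl⟩ := exists_emb hn ⟨g7, g7_mem⟩ x (hx.trans h0.symm)
    have h1 := NoSeven.seven_five hρ (φ.comp ι) (hM.inj.comp hι) ⟨g7, g7_mem⟩ (by
      rw [Subgroup.orderOf_mk, ← Perm.lcm_cycleType, h0]
      decide)
    have h2 := hco (ι ⟨g7, g7_mem⟩) 7 (pow_of_type hx (by decide)) (by decide)
    have h3 : ev (JK ρ (φ (ι ⟨g7, g7_mem⟩))) 1 = 9 := h1
    omega
  have h5 : ∀ x : ↥(alternatingGroup (Fin n)), x ^ 5 = 1 → 6 ≤ ev (σ (φ x)) 1 := by
    intro x hx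
    have h1 := Eig.le_mul_ev (K := F) 5 (T := σ (φ x)) (by rw [← map_pow, ← map_pow, hx, map_one, map_one])
    rw [hV.dim] at h1
    omega
  have hc : n = 7 ∨ n = 8 ∨ n = 9 ∨ n = 10 := by omega
  rcases hc with rfl | rfl | rfl | rfl
  · obtain ⟨x, y, hxy, hx, hy, hz⟩ := Gen.gen7
    have a1 := h22 x hx
    have a2 := h5 y (pow_of_type hy (by decide))
    have a3 := h7 _ hz
    have a4 := hS hxy
    omega
  · obtain ⟨x, y, hxy, hx, hy, hz⟩ := Gen.gen8
    have a1 := h22 x hx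
    have a2 := h7 _ hy
    have a3 := h7 _ hz
    have a4 := hS hxy
    omega
  · obtain ⟨x, y, hxy, hx, hy, hz⟩ := Gen.gen9
    have a1 := h24 (by omega) x hx
    have a2 := h7 _ hy
    have a3 := h7 _ hz
    have a4 := hS hxy
    omega
  · obtain ⟨x, y, hxy, hx, hy, hz⟩ := Gen.gen10
    have a1 := h24 (by omega) x hx
    have a2 := h7 _ hy
    have a3 := h5 (x * y) (pow_of_type hz (by decide))
    have a4 := hS hxy
    omega

end Cfsg.Agent.H952.F4.Cases
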